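import Mathlib
import Cfsg.Prelude.Def_Characters
import Cfsg.Prelude.Def_Blocks
import Cfsg.Agent.S0160
import Cfsg.Agent.H692.RealOdd

/-!
# Real characters and normal subgroups of odd index: the correspondence

For `K` normal of odd index in `G`, each real-valued irreducible character `θ` of `K` lies under
exactly one real-valued irreducible character `χ` of `G`, with multiplicity one, and
`χ 1 = |G : G_θ| θ 1`; every real-valued irreducible character of `G` arises this way.
-/

set_option autoImplicit false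
open Cfsg

namespace Cfsg.Agent.H692.OddCorr

open Cfsg.Agent.Characters.Core Cfsg.Agent.Characters.Clifford Cfsg.Agent.H692.RealAct
open Cfsg.Agent.H692.SqRoot
open Cfsg.Agent.H692.RealOver Cfsg.Agent.H692.Cliff Cfsg.Agent.H692.RealOdd
open scoped ComplexConjugate

universe u
variable {G : Type u} [Group G]

theorem mem_of_sq_mem (K : Subgroup G) [K.Normal] (hodd : Odd K.index) {x : G}
    (hx : x * x ∈ K) : x ∈ K := by
  obtain ⟨n, hn⟩ := hodd
  have h4 := Subgroup.pow_index_mem K x
  rw [hn, pow_succ, pow_mul, sq] at h4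
  exact (Subgroup.mul_mem_cancel_left _ (Subgroup.pow_mem _ hx n)).1 h4

/-- Real elements of `G` lie in `K` and are real in `K`. -/
theorem real_mem [Finite G] (K : Subgroup G) [hK : K.Normal] (hodd : Odd K.index) {x : G}
    (hx : IsConj x x⁻¹) : x ∈ K ∧ ∃ z ∈ K, z * x * z⁻¹ = x⁻¹ := by
  obtain ⟨z, ⟨k, hk⟩, hz⟩ := exists_two_element hx
  have hzK : z ∈ K := by
    have h1 : ∀ i : ℕ, z ^ (2 ^ i) ∈ K → z ∈ K := by
      intro i
      induction i with
      | zero => intro h; simpa using h
      | succ i ih =>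
        intro h
        apply ih
        apply mem_of_sq_mem K hodd
        rw [← pow_add, ← two_mul, ← pow_succ']
        exact h
    apply h1 k
    rw [← hk, pow_orderOf_eq_one]
    exact K.one_mem
  refine ⟨?_, z, hzK, hz⟩
  have h1 : x⁻¹ * x⁻¹ ∈ K := by
    nth_rewrite 1 [← hz]
    have h2 : z * x * z⁻¹ * x⁻¹ = z * (x * z⁻¹ * x⁻¹) := by group
    rw [h2]
    exact K.mul_mem hzK (hK.conj_mem _ (K.inv_mem hzK) x)
  have h3 : x * x ∈ K := by
    have := K.inv_mem h1
    simpa using this
  exact mem_of_sq_mem K hodd h3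

/-- Real classes of `G` and orbits on the real classes of `K`. -/
theorem card_orbits_rcl [Finite G] (K : Subgroup G) [hK : K.Normal] (hodd : Odd K.index) :
    Nat.card (MulAction.orbitRel.Quotient G (RCl K)) =
      Nat.card {C : ConjClasses G // ∀ g : G, ConjClasses.mk g = C → IsConj g g⁻¹} := by
  have hmk : ∀ C : RCl K, ∀ g : G, ConjClasses.mk g = ConjClasses.map K.subtype C.1 →
      IsConj g g⁻¹ := by
    intro C g hg
    obtain ⟨C, hC⟩ := C
    obtain ⟨k, rfl⟩ := ConjClasses.exists_rep C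
    have h1 : IsConj g (k : G) := ConjClasses.mk_eq_mk_iff_isConj.1 hg
    obtain ⟨c, hc⟩ := isConj_iff.1 (hC k rfl)
    have h2 : IsConj (k : G) (k : G)⁻¹ := isConj_iff.2 ⟨c, congrArg Subtype.val hc⟩
    obtain ⟨d, hd⟩ := isConj_iff.1 h1
    have h3 : IsConj g⁻¹ (k : G)⁻¹ := isConj_iff.2 ⟨d, by rw [← hd]; group⟩
    exact (h1.trans h2).trans h3.symm
  let f : MulAction.orbitRel.Quotient G (RCl K) →
      {C : ConjClasses G // ∀ g : G, ConjClasses.mk g = C → IsConj g g⁻¹} :=
    Quotient.lift (fun C : RCl K => ⟨ConjClasses.map K.subtype C.1, hmk C⟩) (by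
      rintro C D ⟨g, hg⟩
      apply Subtype.ext
      show ConjClasses.map K.subtype C.1 = ConjClasses.map K.subtype D.1
      have h1 : clSmul g D.1 = C.1 := by
        rw [← coe_smul_rcl]
        exact congrArg Subtype.val hg
      rw [← h1]
      obtain ⟨D, hD⟩ := D
      obtain ⟨k, rfl⟩ := ConjClasses.exists_rep D
      show ConjClasses.mk ((MulAut.conjNormal g k : K) : G) = ConjClasses.mk (k : G)
      rw [MulAut.conjNormal_apply, ConjClasses.mk_eq_mk_iff_isConj]
      exact (isConj_iff.2 ⟨g, rfl⟩ : IsConj (k : G) _).symm)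
  refine Nat.card_eq_of_bijective f ⟨?_, ?_⟩
  · intro a b
    induction a using Quotient.inductionOn' with
    | h C =>
      induction b using Quotient.inductionOn' with
      | h D =>
        intro hab
        obtain ⟨C, hC⟩ := C
        obtain ⟨D, hD⟩ := D
        obtain ⟨k, rfl⟩ := ConjClasses.exists_rep C
        obtain ⟨l, rfl⟩ := ConjClasses.exists_rep D
        have h1 : ConjClasses.mk (k : G) = ConjClasses.mk (l : G) := congrArg Subtype.val hab
        obtain ⟨g, hg⟩ := isConj_iff.1 (ConjClasses.mk_eq_mk_iff_isConj.1 h1.symm)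
        refine Quotient.sound' ⟨g, Subtype.ext ?_⟩
        show clSmul g (ConjClasses.mk l) = ConjClasses.mk k
        rw [clSmul_mk]
        congr 1
        apply Subtype.ext
        rw [MulAut.conjNormal_apply]
        exact hg
  · rintro ⟨C, hC⟩
    obtain ⟨x, rfl⟩ := ConjClasses.exists_rep C
    obtain ⟨hx, z, hz, hzx⟩ := real_mem K hodd (hC x rfl)
    refine ⟨Quotient.mk'' ⟨ConjClasses.mk ⟨x, hx⟩, ?_⟩, rfl⟩
    intro k hk
    have h1 : IsConj (⟨x, hx⟩ : K) (⟨x, hx⟩ : K)⁻¹ := isConj_iff.2 ⟨⟨z, hz⟩, Subtype.ext hzx⟩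
    have h2 : IsConj k (⟨x, hx⟩ : K) := ConjClasses.mk_eq_mk_iff_isConj.1 hk
    obtain ⟨c, hc⟩ := isConj_iff.1 h2
    have h3 : IsConj k⁻¹ (⟨x, hx⟩ : K)⁻¹ := isConj_iff.2 ⟨c, by rw [← hc]; group⟩
    exact (h2.trans h1).trans h3.symm

/-- As many real characters of `G` as orbits on the real characters of `K`. -/
theorem card_real_eq [Finite G] (K : Subgroup G) [hK : K.Normal] (hodd : Odd K.index) :
    Nat.card {χ : IrrCharacter G // ∀ g : G, ((χ : G → ℂ) g).im = 0} =
      Nat.card (MulAction.orbitRel.Quotient G (RIrr K)) := by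
  rw [Cfsg.Agent.S0160.result, ← card_orbits_rcl K hodd]
  exact (card_orbits_eq (A := G) (X := RIrr K) (Y := RCl K)
    (fun g => card_fixedBy_eq hodd g)).symm

/-- Two real characters of `K` under the same irreducible character are in the same orbit. -/
theorem orbit_eq_of_under [Fintype G] (K : Subgroup G) [hK : K.Normal] [Fintype K] {χ : G → ℂ}
    (hχ : IsIrrCharacter G χ) (θ η : RIrr K)
    (h1 : classInner (fun n : K => χ n) ((θ.1 : IrrCharacter K) : K → ℂ) ≠ 0)
    (h2 : classInner (fun n : K => χ n) ((η.1 : IrrCharacter K) : K → ℂ) ≠ 0) :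
    ∃ g : G, g • θ = η := by
  obtain ⟨g, hg⟩ := exists_conj_of_constituents K hχ θ.1.2 η.1.2 h1 h2
  refine ⟨g⁻¹, Subtype.ext ?_⟩
  rw [coe_smul_rirr]
  apply Subtype.ext
  funext n
  rw [irrSmul_apply, inv_inv, hg]
  rfl

/-- **The correspondence.** A real-valued character of `K` lies under exactly one real-valued
irreducible character of `G`, and every real-valued irreducible character of `G` lies over one. -/
theorem main [Fintype G] (K : Subgroup G) [hK : K.Normal] [Fintype K] (hodd : Odd K.index) :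
    (∀ χ : IrrCharacter G, (∀ g, ((χ : G → ℂ) g).im = 0) →
      ∃ θ : RIrr K, classInner (fun n : K => (χ : G → ℂ) n) ((θ.1 : IrrCharacter K) : K → ℂ) ≠ 0) ∧
    (∀ (θ : RIrr K) (χ χ' : IrrCharacter G), (∀ g, ((χ : G → ℂ) g).im = 0) →
      (∀ g, ((χ' : G → ℂ) g).im = 0) →
      classInner (fun n : K => (χ : G → ℂ) n) ((θ.1 : IrrCharacter K) : K → ℂ) ≠ 0 →
      classInner (fun n : K => (χ' : G → ℂ) n) ((θ.1 : IrrCharacter K) : K → ℂ) ≠ 0 → χ = χ') := by
  classical
  -- a real character over each real character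
  have hex : ∀ θ : RIrr K, ∃ χ : {χ : IrrCharacter G // ∀ g : G, ((χ : G → ℂ) g).im = 0},
      classInner (fun n : K => (χ.1 : G → ℂ) n) ((θ.1 : IrrCharacter K) : K → ℂ) ≠ 0 := by
    intro θ
    obtain ⟨χ, h1, e, h2, h3⟩ := exists_real_over_odd K hodd θ.1.2 θ.2
    refine ⟨⟨χ, h1⟩, ?_⟩
    rw [h3]
    have : e ≠ 0 := by
      rintro rfl
      exact Nat.not_odd_zero h2
    exact_mod_cast this
  choose s hs using hex
  let t : MulAction.orbitRel.Quotient G (RIrr K) →
      {χ : IrrCharacter G // ∀ g : G, ((χ : G → ℂ) g).im = 0} := fun o => s o.out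
  have hfin : Finite (IrrCharacter G) := finite_irr
  have hfin1 : Finite {χ : IrrCharacter G // ∀ g : G, ((χ : G → ℂ) g).im = 0} := inferInstance
  have hfinR : Finite (RIrr K) := finite_rirr
  have hfin2 : Finite (MulAction.orbitRel.Quotient G (RIrr K)) := inferInstance
  have htinj : Function.Injective t := by
    intro o o' h
    have h1 := hs o.out
    have h2 := hs o'.out
    have h3 : s o.out = s o'.out := h
    rw [← h3] at h2
    obtain ⟨g, hg⟩ := orbit_eq_of_under K (s o.out).1.2 o'.out o.out h2 h1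
    have h4 : (Quotient.mk'' o.out : MulAction.orbitRel.Quotient G (RIrr K)) =
        Quotient.mk'' o'.out := Quotient.sound' ⟨g, hg⟩
    rwa [Quotient.out_eq', Quotient.out_eq'] at h4
  have htbij : Function.Bijective t := by
    have hc := card_real_eq K hodd
    have := Fintype.ofFinite {χ : IrrCharacter G // ∀ g : G, ((χ : G → ℂ) g).im = 0}
    have := Fintype.ofFinite (MulAction.orbitRel.Quotient G (RIrr K))
    rw [Fintype.bijective_iff_injective_and_card]
    refine ⟨htinj, ?_⟩
    rw [← Nat.card_eq_fintype_card, ← Nat.card_eq_fintype_card, hc]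
  -- `χ = t o` determines `o`
  have hdet : ∀ (θ : RIrr K) (χ : {χ : IrrCharacter G // ∀ g : G, ((χ : G → ℂ) g).im = 0}),
      classInner (fun n : K => (χ.1 : G → ℂ) n) ((θ.1 : IrrCharacter K) : K → ℂ) ≠ 0 →
      χ = t (Quotient.mk'' θ) := by
    intro θ χ h
    obtain ⟨o, rfl⟩ := htbij.2 χ
    congr 1
    have h1 : classInner (fun n : K => ((t o).1 : G → ℂ) n)
        ((o.out.1 : IrrCharacter K) : K → ℂ) ≠ 0 := hs o.out
    obtain ⟨g, hg⟩ := orbit_eq_of_under K (t o).1.2 θ o.out h h1
    have h4 : (Quotient.mk'' o.out : MulAction.orbitRel.Quotient G (RIrr K)) =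
        Quotient.mk'' θ := Quotient.sound' ⟨g, hg⟩
    rwa [Quotient.out_eq'] at h4
  refine ⟨?_, ?_⟩
  · intro χ hχ
    obtain ⟨o, ho⟩ := htbij.2 ⟨χ, hχ⟩
    refine ⟨o.out, ?_⟩
    have h1 := hs o.out
    have h2 : s o.out = ⟨χ, hχ⟩ := ho
    rw [h2] at h1
    exact h1
  · intro θ χ χ' h1 h2 h3 h4
    have h5 := hdet θ ⟨χ, h1⟩ h3
    have h6 := hdet θ ⟨χ', h2⟩ h4
    exact congrArg Subtype.val (h5.trans h6.symm)

/-- The Frobenius–Schur functional of the induced character. -/
theorem nu_indFun [Fintype G] (K : Subgroup G) [hK : K.Normal] [Fintype K] (hodd : Odd K.index)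
    {θ : K → ℂ} : nu (indFun K θ) = nu θ := by
  classical
  have hcG : (Nat.card G : ℂ) ≠ 0 := by exact_mod_cast Nat.card_pos.ne'
  unfold nu
  have h1 : ∑ s : G, indFun K θ (s * s) = ∑ k : K, indFun K θ ((k : G) * k) := by
    have h2 : ∑ k : K, indFun K θ ((k : G) * k) =
        ∑ s ∈ Finset.univ.filter (fun s : G => s ∈ K), indFun K θ (s * s) := by
      rw [← Finset.sum_subtype (Finset.univ.filter (fun s : G => s ∈ K)) (fun s => by simp)
        (fun s : G => indFun K θ (s * s))]
    rw [h2, ← Finset.sum_filter_add_sum_filter_not Finset.univ (fun s : G => s ∈ K)]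
    rw [add_eq_left]
    refine Finset.sum_eq_zero fun s hs => ?_
    have hs' := (Finset.mem_filter.1 hs).2
    apply Cfsg.Agent.CharactersDeep.NormalInd.indFun_of_not_mem
    exact fun h => hs' (mem_of_sq_mem K hodd h)
  rw [h1]
  have h3 : ∀ k : K, indFun K θ ((k : G) * k) = (Nat.card K : ℂ)⁻¹ *
      ∑ x : G, θ (MulAut.conjNormal x k * MulAut.conjNormal x k) := by
    intro k
    rw [← Subgroup.coe_mul, Cfsg.Agent.CharactersDeep.NormalInd.indFun_coe]
    congr 1
    refine Finset.sum_congr rfl fun x _ => ?_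
    congr 1
    apply Subtype.ext
    show x * ((k : G) * k) * x⁻¹ = x * k * x⁻¹ * (x * k * x⁻¹)
    group
  rw [Finset.sum_congr rfl fun k _ => h3 k, ← Finset.mul_sum, Finset.sum_comm]
  have h4 : ∀ x : G, ∑ k : K, θ (MulAut.conjNormal x k * MulAut.conjNormal x k) =
      ∑ k : K, θ (k * k) := by
    intro x
    exact Fintype.sum_equiv (MulAut.conjNormal x : MulAut K).toEquiv _ _ (fun k => rfl)
  rw [Finset.sum_congr rfl fun x _ => h4 x, Finset.sum_const, Finset.card_univ, nsmul_eq_mul,
    ← Nat.card_eq_fintype_card]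
  field_simp

/-- **Multiplicity one.** -/
theorem mult_one [Fintype G] (K : Subgroup G) [hK : K.Normal] [Fintype K] (hodd : Odd K.index)
    (θ : RIrr K) (χ : IrrCharacter G) (hχ : ∀ g, ((χ : G → ℂ) g).im = 0)
    (h : classInner (fun n : K => (χ : G → ℂ) n) ((θ.1 : IrrCharacter K) : K → ℂ) ≠ 0) :
    classInner (fun n : K => (χ : G → ℂ) n) ((θ.1 : IrrCharacter K) : K → ℂ) = 1 := by
  classical
  have hfin : Finite (IrrCharacter G) := finite_irr
  have hft : Fintype (IrrCharacter G) := Fintype.ofFinite _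
  obtain ⟨c, hc1, hc2⟩ := Cfsg.Agent.CharDeep.CliffordCorr.exists_nat_coeffs_indFun
    K (isIrr_isCharacter θ.1.2)
  have hc3 : ∀ χ : IrrCharacter G, classInner (fun n : K => (χ : G → ℂ) n)
      ((θ.1 : IrrCharacter K) : K → ℂ) = c χ := by
    intro χ
    rw [← classInner_conj_symm, hc2, Complex.conj_natCast]
  have h1 : nu (indFun K ((θ.1 : IrrCharacter K) : K → ℂ)) =
      ∑ ψ : IrrCharacter G, (c ψ : ℂ) * nu (ψ : G → ℂ) := by
    unfold nu
    simp only [Finset.mul_sum]
    rw [Finset.sum_comm]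
    refine Finset.sum_congr rfl fun g _ => ?_
    rw [hc1]
    simp only [Finset.sum_apply, Pi.smul_apply, smul_eq_mul, Finset.mul_sum]
    refine Finset.sum_congr rfl fun ψ _ => ?_
    ring
  rw [nu_indFun K hodd, Finset.sum_eq_single χ] at h1
  · -- `c χ ν(χ) = ν(θ) = ± 1`
    have h2 : nu ((θ.1 : IrrCharacter K) : K → ℂ) = 1 ∨
        nu ((θ.1 : IrrCharacter K) : K → ℂ) = -1 := by
      rcases nu_spec θ.1.2 with ⟨-, k, hk⟩ | ⟨h3, -⟩
      · exact absurd (θ.2 k) hk
      · exact h3
    have h3 : nu (χ : G → ℂ) = 1 ∨ nu (χ : G → ℂ) = -1 := by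
      rcases nu_spec χ.2 with ⟨-, k, hk⟩ | ⟨h3, -⟩
      · exact absurd (hχ k) hk
      · exact h3
    rw [hc3]
    have h4 : (c χ : ℂ) = 1 ∨ (c χ : ℂ) = -1 := by
      rcases h2 with h2 | h2 <;> rcases h3 with h3 | h3 <;> rw [h2, h3] at h1
      · left; linear_combination -h1
      · right; linear_combination h1
      · right; linear_combination -h1
      · left; linear_combination h1
    rcases h4 with h4 | h4
    · exact h4
    · exfalso
      have h5 := congrArg Complex.re h4
      simp only [Complex.natCast_re, Complex.neg_re, Complex.one_re] at h5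
      have h6 : (0 : ℝ) ≤ c χ := Nat.cast_nonneg _
      linarith
  · intro ψ _ hψ
    by_cases hr : ∀ g, ((ψ : G → ℂ) g).im = 0
    · by_cases hc0 : c ψ = 0
      · rw [hc0, Nat.cast_zero, zero_mul]
      · exfalso
        apply hψ
        refine (main K hodd).2 θ ψ χ hr hχ ?_ h
        rw [hc3]
        exact_mod_cast hc0
    · rw [nu_eq_zero_of_not_real ψ.2 hr, mul_zero]
  · intro h'
    exact absurd (Finset.mem_univ _) h'

/-- The degree of the real character over `θ`. -/
theorem degree [Fintype G] (K : Subgroup G) [hK : K.Normal] [Fintype K] (hodd : Odd K.index)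
    (θ : RIrr K) (χ : IrrCharacter G) (hχ : ∀ g, ((χ : G → ℂ) g).im = 0)
    (h : classInner (fun n : K => (χ : G → ℂ) n) ((θ.1 : IrrCharacter K) : K → ℂ) ≠ 0) :
    charDegree (χ : G → ℂ) =
      (MulAction.stabilizer G θ).index * charDegree ((θ.1 : IrrCharacter K) : K → ℂ) := by
  have h1 := mult_one K hodd θ χ hχ h
  obtain ⟨h2, -⟩ := degree_formula_nat K θ.1.2 χ.2 one_ne_zero (by rw [h1, Nat.cast_one])
  rw [h2, mul_one, stabilizer_rirr]

end Cfsg.Agent.H692.OddCorr
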