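import Mathlib
import Cfsg.Prelude.Def_Characters
import Cfsg.Prelude.Def_Blocks
import Cfsg.Agent.H692.OddCorr
import Cfsg.Agent.H692.CjFix

/-!
# The real McKay bijection from a correspondence below
-/

set_option autoImplicit false
open Cfsg

namespace Cfsg.Agent.H692.RealMcKay

open Cfsg.Agent.Characters.Core Cfsg.Agent.Characters.Clifford Cfsg.Agent.H692.RealAct
open Cfsg.Agent.H692.NormalSylow
open Cfsg.Agent.H692.RealOver Cfsg.Agent.H692.Cliff Cfsg.Agent.H692.RealOdd Cfsg.Agent.H692.OddCorr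
open scoped ComplexConjugate

universe u
variable {G : Type u} [Group G]

/-- Points fixed by `P` in the same orbit are conjugate under the normalizer of `P`. -/
theorem exists_normalizer_smul [Finite G] {p : ℕ} [hp : Fact p.Prime] (P : Sylow p G) {X : Type*}
    [MulAction G X] {x : X} {g : G} (hx : ∀ u ∈ (P : Subgroup G), u • x = x)
    (hgx : ∀ u ∈ (P : Subgroup G), u • g • x = g • x) :
    ∃ n ∈ Subgroup.normalizer ((P : Subgroup G) : Set G), n • x = g • x := by
  set T := MulAction.stabilizer G x with hT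
  have h1 : (P : Subgroup G) ≤ T := fun u hu => MulAction.mem_stabilizer_iff.2 (hx u hu)
  have h2 : ((g⁻¹ • P : Sylow p G) : Subgroup G) ≤ T := by
    intro v hv
    rw [Sylow.coe_subgroup_smul] at hv
    rw [Subgroup.mem_pointwise_smul_iff_inv_smul_mem, ← map_inv, inv_inv] at hv
    have h3 := hgx _ hv
    rw [MulAut.smul_def, MulAut.conj_apply] at h3
    rw [hT, MulAction.mem_stabilizer_iff]
    have h4 : g * v * g⁻¹ * g = g * v := by group
    rw [smul_smul, h4, mul_smul] at h3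
    exact smul_left_cancel g h3
  obtain ⟨h, hh⟩ := MulAction.exists_smul_eq T ((g⁻¹ • P).subtype h2) (P.subtype h1)
  simp_rw [Sylow.smul_subtype, Subgroup.smul_def, smul_smul] at hh
  have h5 : (h : G) * g⁻¹ ∈ Subgroup.normalizer ((P : Subgroup G) : Set G) :=
    Sylow.smul_eq_iff_mem_normalizer.mp (Sylow.subtype_injective hh)
  refine ⟨((h : G) * g⁻¹)⁻¹, Subgroup.inv_mem _ h5, ?_⟩
  rw [mul_inv_rev, inv_inv, mul_smul]
  congr 1
  rw [inv_smul_eq_iff]
  exact (MulAction.mem_stabilizer_iff.1 h.2).symm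

/-- Index congruence: for `P ≤ T`, `|G : T| ≡ |N : N ∩ T|` modulo `p`, `N` the normalizer. -/
theorem index_congr [Finite G] {p : ℕ} [hp : Fact p.Prime] (P : Sylow p G) (T : Subgroup G)
    (hPT : (P : Subgroup G) ≤ T) :
    (T.index : ZMod p) = (T.relIndex (Subgroup.normalizer ((P : Subgroup G) : Set G)) : ZMod p) := by
  set N := Subgroup.normalizer ((P : Subgroup G) : Set G) with hN
  have h1 : (T ⊓ N).relIndex N * N.index = (T ⊓ N).index :=
    Subgroup.relIndex_mul_index inf_le_right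
  have h2 : (T ⊓ N).relIndex T * T.index = (T ⊓ N).index :=
    Subgroup.relIndex_mul_index inf_le_left
  rw [Subgroup.inf_relIndex_right] at h1
  rw [Subgroup.inf_relIndex_left] at h2
  have h3 : (N.index : ZMod p) = 1 := by
    have h4 : N.index = Nat.card (Sylow p G) := (Sylow.card_eq_index_normalizer P).symm
    rw [h4]
    have h5 := card_sylow_modEq_one p G
    have h6 := (ZMod.natCast_eq_natCast_iff _ _ p).2 h5
    rw [h6, Nat.cast_one]
  have h4 : (N.relIndex T : ZMod p) = 1 := by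
    have h5 : N.relIndex T = Nat.card (Sylow p T) := by
      rw [Sylow.card_eq_index_normalizer (P.subtype hPT), Subgroup.relIndex, hN,
        Subgroup.subgroupOf_normalizer_eq hPT]
      rfl
    rw [h5]
    have h6 := (ZMod.natCast_eq_natCast_iff _ _ p).2 (card_sylow_modEq_one p T)
    rw [h6, Nat.cast_one]
  have h7 : (T.relIndex N : ZMod p) * (N.index : ZMod p) =
      (N.relIndex T : ZMod p) * (T.index : ZMod p) := by
    rw [← Nat.cast_mul, ← Nat.cast_mul, h1, h2]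
  rw [h3, h4, mul_one, one_mul] at h7
  exact h7.symm

/-- The constituent relation passes to conjugates. -/
theorem inner_smul_ne_zero [Fintype G] (K : Subgroup G) [hK : K.Normal] [Fintype K] {χ : G → ℂ}
    (hχ : IsIrrCharacter G χ) (θ : RIrr K) (g : G)
    (h : classInner (fun n : K => χ n) ((θ.1 : IrrCharacter K) : K → ℂ) ≠ 0) :
    classInner (fun n : K => χ n) (((g • θ).1 : IrrCharacter K) : K → ℂ) ≠ 0 := by
  have h1 := classInner_restrict_conjNormal (isIrr_isClassFunction hχ)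
    ((θ.1 : IrrCharacter K) : K → ℂ) (g⁻¹)
  rw [← h1] at h
  rw [coe_smul_rirr]
  exact h

/-- **The real McKay bijection** from an equivariant correspondence of the `P`-fixed real characters
of `K` and of `K ∩ N_G(P)`. -/
theorem exists_bij [Finite G] {p : ℕ} [hp : Fact p.Prime] (hreal : RealPrime p G)
    (K : Subgroup G) [hK : K.Normal] (hodd : Odd K.index) (P : Sylow p G) (N : Subgroup G)
    (hN : N = Subgroup.normalizer ((P : Subgroup G) : Set G))
    (Φ : RIrr K → RIrr (K.subgroupOf N))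
    (hfix : ∀ θ : RIrr K, (∀ u ∈ (P : Subgroup G), u • θ = θ) →
      ∀ u : N, (u : G) ∈ (P : Subgroup G) → u • Φ θ = Φ θ)
    (hinj : ∀ θ θ' : RIrr K, (∀ u ∈ (P : Subgroup G), u • θ = θ) →
      (∀ u ∈ (P : Subgroup G), u • θ' = θ') → Φ θ = Φ θ' → θ = θ')
    (hsurj : ∀ φ : RIrr (K.subgroupOf N), (∀ u : N, (u : G) ∈ (P : Subgroup G) → u • φ = φ) →
      ∃ θ : RIrr K, (∀ u ∈ (P : Subgroup G), u • θ = θ) ∧ Φ θ = φ)
    (hequiv : ∀ (n : N) (θ : RIrr K), (∀ u ∈ (P : Subgroup G), u • θ = θ) →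
      Φ ((n : G) • θ) = n • Φ θ)
    (hdeg : ∀ θ : RIrr K, (∀ u ∈ (P : Subgroup G), u • θ = θ) →
      (charDegree (((Φ θ).1 : IrrCharacter (K.subgroupOf N)) : K.subgroupOf N → ℂ) : ZMod p) =
        (charDegree ((θ.1 : IrrCharacter K) : K → ℂ) : ZMod p) ∨
      (charDegree (((Φ θ).1 : IrrCharacter (K.subgroupOf N)) : K.subgroupOf N → ℂ) : ZMod p) =
        -(charDegree ((θ.1 : IrrCharacter K) : K → ℂ) : ZMod p)) :
    ∃ f : {χ : IrrCharacter G // ∀ g : G, ((χ : G → ℂ) g).im = 0} →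
      {ξ : IrrCharacter N // (∀ n, ((ξ : N → ℂ) n).im = 0) ∧ ¬ p ∣ charDegree (ξ : N → ℂ)},
      Function.Bijective f ∧ ∀ χ,
        ((charDegree ((f χ).1 : N → ℂ) : ZMod p) = (charDegree (χ.1 : G → ℂ) : ZMod p) ∨
          (charDegree ((f χ).1 : N → ℂ) : ZMod p) = -(charDegree (χ.1 : G → ℂ) : ZMod p)) := by
  classical
  have hGf := Fintype.ofFinite G
  have hNf := Fintype.ofFinite N
  have hKf := Fintype.ofFinite K
  have hCf := Fintype.ofFinite (K.subgroupOf N)
  have hoddN : Odd (K.subgroupOf N).index := by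
    have h1 : K.relIndex N ∣ K.index := Subgroup.relIndex_dvd_index_of_normal K N
    exact Odd.of_dvd_nat hodd h1
  -- `P` fixed characters have stabilizers in `N` of index prime to `p`
  have hPN : (P : Subgroup G) ≤ N := by
    rw [hN]
    exact Subgroup.le_normalizer
  have hidxP : ∀ φ : RIrr (K.subgroupOf N),
      (∀ u : N, (u : G) ∈ (P : Subgroup G) → u • φ = φ) →
      ¬ p ∣ (MulAction.stabilizer N φ).index := by
    intro φ hφ hd
    have h1 : (P : Subgroup G).subgroupOf N ≤ MulAction.stabilizer N φ := by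
      intro u hu
      exact MulAction.mem_stabilizer_iff.2 (hφ u (Subgroup.mem_subgroupOf.1 hu))
    have h2 : (P : Subgroup G).relIndex N ∣ (P : Subgroup G).index :=
      Subgroup.relIndex_dvd_index_of_le hPN
    exact P.not_dvd_index (hd.trans ((Subgroup.index_dvd_of_le h1).trans h2))
  let Rel : {χ : IrrCharacter G // ∀ g : G, ((χ : G → ℂ) g).im = 0} →
      {ξ : IrrCharacter N // (∀ n, ((ξ : N → ℂ) n).im = 0) ∧ ¬ p ∣ charDegree (ξ : N → ℂ)} → Prop :=
    fun χ ξ => ∃ θ : RIrr K, (∀ u ∈ (P : Subgroup G), u • θ = θ) ∧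
      classInner (fun n : K => (χ.1 : G → ℂ) n) ((θ.1 : IrrCharacter K) : K → ℂ) ≠ 0 ∧
      classInner (fun n : K.subgroupOf N => (ξ.1 : N → ℂ) n)
        (((Φ θ).1 : IrrCharacter (K.subgroupOf N)) : K.subgroupOf N → ℂ) ≠ 0
  -- degrees below are prime to `p`
  have hθdeg : ∀ (χ : {χ : IrrCharacter G // ∀ g : G, ((χ : G → ℂ) g).im = 0}) (θ : RIrr K),
      classInner (fun n : K => (χ.1 : G → ℂ) n) ((θ.1 : IrrCharacter K) : K → ℂ) ≠ 0 →
      ¬ p ∣ charDegree ((θ.1 : IrrCharacter K) : K → ℂ) := by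
    intro χ θ h hd
    apply hreal χ.1 χ.2
    rw [degree K hodd θ χ.1 χ.2 h]
    exact hd.mul_left _
  have hE1 : ∀ χ, ∃ ξ, Rel χ ξ := by
    intro χ
    obtain ⟨θ₀, hθ₀⟩ := (main K hodd).1 χ.1 χ.2
    obtain ⟨g, hg⟩ := Cfsg.Agent.H692.CjFix.exists_conj_le (MulAction.stabilizer G θ₀)
      (P : Subgroup G) P.2 (not_dvd_stabilizer_rirr hreal K hodd θ₀)
    have hPf : ∀ u ∈ (P : Subgroup G), u • (g • θ₀) = g • θ₀ := by
      intro u hu
      have h1 := MulAction.mem_stabilizer_iff.1 (hg u hu)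
      have h2 : u • g • θ₀ = g • ((g⁻¹ * u * g) • θ₀) := by
        rw [smul_smul, smul_smul]
        congr 1
        group
      rw [h2, h1]
    have hunder := inner_smul_ne_zero K χ.1.2 θ₀ g hθ₀
    obtain ⟨ξ, hξ1, e, he1, he2⟩ := exists_real_over_odd (K.subgroupOf N) hoddN
      (Φ (g • θ₀)).1.2 (Φ (g • θ₀)).2
    have he0 : classInner (fun n : K.subgroupOf N => (ξ : N → ℂ) n)
        (((Φ (g • θ₀)).1 : IrrCharacter (K.subgroupOf N)) : K.subgroupOf N → ℂ) ≠ 0 := by
      rw [he2]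
      have : e ≠ 0 := by
        rintro rfl
        exact Nat.not_odd_zero he1
      exact_mod_cast this
    refine ⟨⟨ξ, hξ1, ?_⟩, g • θ₀, hPf, hunder, he0⟩
    rw [degree (K.subgroupOf N) hoddN (Φ (g • θ₀)) ξ hξ1 he0, hp.out.dvd_mul]
    refine not_or.2 ⟨hidxP _ (hfix _ hPf), ?_⟩
    intro hd
    have h3 := (ZMod.natCast_eq_zero_iff _ p).2 hd
    rcases hdeg _ hPf with h4 | h4
    · rw [h3] at h4
      exact hθdeg χ _ hunder ((ZMod.natCast_eq_zero_iff _ p).1 h4.symm)
    · rw [h3, eq_comm, neg_eq_zero] at h4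
      exact hθdeg χ _ hunder ((ZMod.natCast_eq_zero_iff _ p).1 h4)
  have hE2 : ∀ ξ, ∃ χ, Rel χ ξ := by
    intro ξ
    obtain ⟨φ, hφ⟩ := (main (K.subgroupOf N) hoddN).1 ξ.1 ξ.2.1
    have hidx : ¬ p ∣ (MulAction.stabilizer N φ).index := by
      intro hd
      apply ξ.2.2
      rw [degree (K.subgroupOf N) hoddN φ ξ.1 ξ.2.1 hφ]
      exact hd.mul_right _
    have hPNp : IsPGroup p ((P : Subgroup G).subgroupOf N) := P.2.comap_subtype
    obtain ⟨g, hg⟩ := Cfsg.Agent.H692.CjFix.exists_conj_le (MulAction.stabilizer N φ)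
      ((P : Subgroup G).subgroupOf N) hPNp hidx
    have hPf : ∀ u : N, (u : G) ∈ (P : Subgroup G) → u • φ = φ := by
      intro u hu
      have h1 : g * u * g⁻¹ ∈ (P : Subgroup G).subgroupOf N := by
        rw [Subgroup.mem_subgroupOf]
        have h2 : (g : G) ∈ Subgroup.normalizer ((P : Subgroup G) : Set G) := by
          rw [← hN]
          exact g.2
        exact (Subgroup.mem_normalizer_iff.1 h2 u).1 hu
      have h3 := hg _ h1
      have h4 : g⁻¹ * (g * u * g⁻¹) * g = u := by group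
      rw [h4] at h3
      exact MulAction.mem_stabilizer_iff.1 h3
    obtain ⟨θ, hθ1, hθ2⟩ := hsurj φ hPf
    obtain ⟨χ, hχ1, e, he1, he2⟩ := exists_real_over_odd K hodd θ.1.2 θ.2
    refine ⟨⟨χ, hχ1⟩, θ, hθ1, ?_, ?_⟩
    · show classInner (fun n : K => (χ : G → ℂ) n) _ ≠ 0
      rw [he2]
      have : e ≠ 0 := by
        rintro rfl
        exact Nat.not_odd_zero he1
      exact_mod_cast this
    · rw [hθ2]
      exact hφ
  have hU1 : ∀ χ ξ ξ', Rel χ ξ → Rel χ ξ' → ξ = ξ' := by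
    rintro χ ξ ξ' ⟨θ, hθ1, hθ2, hθ3⟩ ⟨θ', hθ1', hθ2', hθ3'⟩
    obtain ⟨g, hg⟩ := orbit_eq_of_under K χ.1.2 θ θ' hθ2 hθ2'
    obtain ⟨n, hn, hn2⟩ := exists_normalizer_smul P (x := θ) (g := g) hθ1 (by
      rw [hg]
      exact hθ1')
    rw [← hN] at hn
    have h1 : Φ θ' = (⟨n, hn⟩ : N) • Φ θ := by
      rw [← hg, ← hn2]
      exact hequiv ⟨n, hn⟩ θ hθ1
    have h2 := inner_smul_ne_zero (K.subgroupOf N) ξ.1.2 (Φ θ) (⟨n, hn⟩ : N) hθ3
    rw [← h1] at h2
    exact Subtype.ext ((main (K.subgroupOf N) hoddN).2 (Φ θ') ξ.1 ξ'.1 ξ.2.1 ξ'.2.1 h2 hθ3')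
  have hU2 : ∀ χ χ' ξ, Rel χ ξ → Rel χ' ξ → χ = χ' := by
    rintro χ χ' ξ ⟨θ, hθ1, hθ2, hθ3⟩ ⟨θ', hθ1', hθ2', hθ3'⟩
    obtain ⟨n, hn⟩ := orbit_eq_of_under (K.subgroupOf N) ξ.1.2 (Φ θ) (Φ θ') hθ3 hθ3'
    have hnP : ∀ u ∈ (P : Subgroup G), u • ((n : G) • θ) = (n : G) • θ := by
      intro u hu
      have h2 : (n : G) ∈ Subgroup.normalizer ((P : Subgroup G) : Set G) := by
        rw [← hN]
        exact n.2
      have h3 : (n : G)⁻¹ * u * n ∈ (P : Subgroup G) := by
        have h4 := Subgroup.inv_mem _ h2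
        have h5 := (Subgroup.mem_normalizer_iff.1 h4 u).1 hu
        rwa [inv_inv] at h5
      have h6 : u • (n : G) • θ = (n : G) • (((n : G)⁻¹ * u * n) • θ) := by
        rw [smul_smul, smul_smul]
        congr 1
        group
      rw [h6, hθ1 _ h3]
    have h1 : Φ ((n : G) • θ) = Φ θ' := by rw [hequiv n θ hθ1, hn]
    have h7 : (n : G) • θ = θ' := hinj _ _ hnP hθ1' h1
    have h8 := inner_smul_ne_zero K χ.1.2 θ (n : G) hθ2
    rw [h7] at h8
    exact Subtype.ext ((main K hodd).2 θ' χ.1 χ'.1 χ.2 χ'.2 h8 hθ2')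
  have hD : ∀ χ ξ, Rel χ ξ →
      ((charDegree (ξ.1 : N → ℂ) : ZMod p) = (charDegree (χ.1 : G → ℂ) : ZMod p) ∨
        (charDegree (ξ.1 : N → ℂ) : ZMod p) = -(charDegree (χ.1 : G → ℂ) : ZMod p)) := by
    rintro χ ξ ⟨θ, hθ1, hθ2, hθ3⟩
    rw [degree K hodd θ χ.1 χ.2 hθ2, degree (K.subgroupOf N) hoddN (Φ θ) ξ.1 ξ.2.1 hθ3]
    have hst : MulAction.stabilizer N (Φ θ) = (MulAction.stabilizer G θ).subgroupOf N := by
      ext n
      rw [MulAction.mem_stabilizer_iff, Subgroup.mem_subgroupOf, MulAction.mem_stabilizer_iff,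
        ← hequiv n θ hθ1]
      constructor
      · intro h
        refine hinj _ _ ?_ hθ1 h
        intro u hu
        have h2 : (n : G) ∈ Subgroup.normalizer ((P : Subgroup G) : Set G) := by
          rw [← hN]
          exact n.2
        have h3 : (n : G)⁻¹ * u * n ∈ (P : Subgroup G) := by
          have h4 := Subgroup.inv_mem _ h2
          have h5 := (Subgroup.mem_normalizer_iff.1 h4 u).1 hu
          rwa [inv_inv] at h5
        have h6 : u • (n : G) • θ = (n : G) • (((n : G)⁻¹ * u * n) • θ) := by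
          rw [smul_smul, smul_smul]
          congr 1
          group
        rw [h6, hθ1 _ h3]
      · intro h
        rw [h]
    have h1 : ((MulAction.stabilizer N (Φ θ)).index : ZMod p) =
        ((MulAction.stabilizer G θ).index : ZMod p) := by
      rw [hst, index_congr P _ (fun u hu => MulAction.mem_stabilizer_iff.2 (hθ1 u hu)), ← hN]
      rfl
    rw [Nat.cast_mul, Nat.cast_mul, h1]
    rcases hdeg θ hθ1 with h2 | h2
    · left
      rw [h2]
    · right
      rw [h2]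
      ring
  choose f hf using hE1
  refine ⟨f, ⟨?_, ?_⟩, fun χ => hD χ (f χ) (hf χ)⟩
  · intro χ χ' h
    have h1 := hf χ
    rw [h] at h1
    exact hU2 χ χ' (f χ') h1 (hf χ')
  · intro ξ
    obtain ⟨χ, hχ⟩ := hE2 ξ
    exact ⟨χ, hU1 χ (f χ) ξ (hf χ) hχ⟩

end Cfsg.Agent.H692.RealMcKay
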