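import Mathlib
import Cfsg.Prelude.Def_Characters
import Cfsg.Prelude.Def_Blocks
import Cfsg.Agent.H692.RealMcKay

/-!
# The real McKay bijection from the relative Glauberman correspondence
-/

set_option autoImplicit false
open Cfsg

namespace Cfsg.Agent.H692.RealMcKayC

open Cfsg.Agent.Characters.Core Cfsg.Agent.Characters.Clifford Cfsg.Agent.H692.RealAct
open Cfsg.Agent.H692.NormalSylow
open Cfsg.Agent.H692.RealOver Cfsg.Agent.H692.Cliff Cfsg.Agent.H692.RealOdd Cfsg.Agent.H692.OddCorr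
open scoped ComplexConjugate

universe u
variable {G : Type u} [Group G]

/-- The two versions of `K ∩ N`. -/
def eqv (K N : Subgroup G) : (K.subgroupOf N) ≃* (K ⊓ N : Subgroup G) where
  toFun x := ⟨((x : N) : G), Subgroup.mem_subgroupOf.1 x.2, x.1.2⟩
  invFun c := ⟨⟨(c : G), c.2.2⟩, Subgroup.mem_subgroupOf.2 c.2.1⟩
  left_inv _ := rfl
  right_inv _ := rfl
  map_mul' _ _ := rfl

theorem eqv_coe (K N : Subgroup G) (x : K.subgroupOf N) : ((eqv K N x : (K ⊓ N : Subgroup G)) : G) =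
    ((x : N) : G) := rfl

theorem eqv_symm_coe (K N : Subgroup G) (c : (K ⊓ N : Subgroup G)) :
    ((((eqv K N).symm c : K.subgroupOf N) : N) : G) = c := rfl

/-- The `P`-invariant irreducible characters of `H`. -/
abbrev PInv (P H : Subgroup G) : Type u :=
  {χ : IrrCharacter ↥H // (∀ x ∈ P, ∀ k k' : ↥H, (k' : G) = x * (k : G) * x⁻¹ →
    (χ : ↥H → ℂ) k' = (χ : ↥H → ℂ) k)}

theorem pInv_iff (P K : Subgroup G) [hK : K.Normal] (θ : RIrr K) :
    (∀ u ∈ P, u • θ = θ) ↔ ∀ x ∈ P, ∀ k k' : ↥K, (k' : G) = x * (k : G) * x⁻¹ →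
      ((θ.1 : IrrCharacter K) : ↥K → ℂ) k' = ((θ.1 : IrrCharacter K) : ↥K → ℂ) k := by
  constructor
  · intro h x hx k k' hk
    have h1 := h x⁻¹ (P.inv_mem hx)
    have h2 : irrSmul x⁻¹ θ.1 = θ.1 := by rw [← coe_smul_rirr, h1]
    have h3 := congrFun (congrArg Subtype.val h2) k
    rw [irrSmul_apply, inv_inv] at h3
    have h4 : k' = MulAut.conjNormal x k := Subtype.ext (by rw [MulAut.conjNormal_apply, hk])
    rw [h4]
    exact h3
  · intro h u hu
    apply Subtype.ext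
    rw [coe_smul_rirr]
    apply Subtype.ext
    funext k
    rw [irrSmul_apply]
    exact h u⁻¹ (P.inv_mem hu) k _ (by rw [MulAut.conjNormal_apply])

/-- The inner product of the restriction. -/
noncomputable def inn {K C : Subgroup G} (hCK : C ≤ K) (θ : K → ℂ) (ξ : C → ℂ) : ℂ :=
  (Nat.card ↥C : ℂ)⁻¹ * ∑ᶠ c : ↥C, θ (Subgroup.inclusion hCK c) * (starRingEnd ℂ) (ξ c)

theorem inn_conj [Finite G] {K C : Subgroup G} (hCK : C ≤ K) (θ : K → ℂ) (ξ : C → ℂ) :
    inn hCK (fun k => conj (θ k)) (fun c => conj (ξ c)) = conj (inn hCK θ ξ) := by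
  classical
  have := Fintype.ofFinite C
  unfold inn
  rw [finsum_eq_sum_of_fintype, finsum_eq_sum_of_fintype, map_mul, map_inv₀, map_natCast, map_sum]
  congr 1
  refine Finset.sum_congr rfl fun c _ => ?_
  rw [map_mul]

/-- **Main assembly.** -/
theorem exists_bij [Finite G] {p : ℕ} [hp : Fact p.Prime] (hreal : RealPrime p G)
    (K : Subgroup G) [hK : K.Normal] (hodd : Odd K.index) (P : Sylow p G) (N : Subgroup G)
    (hN : N = Subgroup.normalizer ((P : Subgroup G) : Set G))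
    (f : PInv (P : Subgroup G) K → PInv (P : Subgroup G) (K ⊓ N)) (hf : Function.Bijective f)
    (hf2 : ∀ χ, (∀ ξ : PInv (P : Subgroup G) (K ⊓ N), ∃ m : ℕ,
      inn inf_le_left (χ.1 : ↥K → ℂ) (ξ.1 : ↥(K ⊓ N) → ℂ) = (m : ℂ) ∧
      (ξ = f χ → ((m : ZMod p) = 1 ∨ (m : ZMod p) = -1)) ∧ (ξ ≠ f χ → p ∣ m)) ∧
      ((charDegree ((f χ).1 : ↥(K ⊓ N) → ℂ) : ZMod p) = (charDegree (χ.1 : ↥K → ℂ) : ZMod p) ∨
      (charDegree ((f χ).1 : ↥(K ⊓ N) → ℂ) : ZMod p) =
        -(charDegree (χ.1 : ↥K → ℂ) : ZMod p))) :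
    ∃ F : {χ : IrrCharacter G // ∀ g : G, ((χ : G → ℂ) g).im = 0} →
      {ξ : IrrCharacter N // (∀ n, ((ξ : N → ℂ) n).im = 0) ∧ ¬ p ∣ charDegree (ξ : N → ℂ)},
      Function.Bijective F ∧ ∀ χ,
        ((charDegree ((F χ).1 : N → ℂ) : ZMod p) = (charDegree (χ.1 : G → ℂ) : ZMod p) ∨
          (charDegree ((F χ).1 : N → ℂ) : ZMod p) = -(charDegree (χ.1 : G → ℂ) : ZMod p)) := by
  classical
  have h10 : (1 : ZMod p) ≠ 0 := one_ne_zero
  -- uniqueness
  have F1 : ∀ (θ : PInv (P : Subgroup G) K) (ξ : PInv (P : Subgroup G) (K ⊓ N)) (m : ℕ),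
      inn inf_le_left (θ.1 : ↥K → ℂ) (ξ.1 : ↥(K ⊓ N) → ℂ) = (m : ℂ) → ¬ p ∣ m → ξ = f θ := by
    intro θ ξ m h1 h2
    by_contra hne
    obtain ⟨m', hm', -, h3⟩ := (hf2 θ).1 ξ
    rw [h1] at hm'
    have : m = m' := by exact_mod_cast hm'
    rw [this] at h2
    exact h2 (h3 hne)
  have F2 : ∀ θ : PInv (P : Subgroup G) K, ∃ m : ℕ,
      inn inf_le_left (θ.1 : ↥K → ℂ) ((f θ).1 : ↥(K ⊓ N) → ℂ) = (m : ℂ) ∧ ¬ p ∣ m := by
    intro θ
    obtain ⟨m, h1, h2, -⟩ := (hf2 θ).1 (f θ)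
    refine ⟨m, h1, fun hd => ?_⟩
    have h3 := (ZMod.natCast_eq_zero_iff _ p).2 hd
    rcases h2 rfl with h4 | h4
    · rw [h3] at h4
      exact h10 h4.symm
    · rw [h3, eq_comm, neg_eq_zero] at h4
      exact h10 h4
  -- complex conjugation
  let cj : ∀ H : Subgroup G, PInv (P : Subgroup G) H → PInv (P : Subgroup G) H := fun H θ =>
    ⟨irrConj θ.1, fun x hx k k' hk => by
      rw [irrConj_apply, irrConj_apply, θ.2 x hx k k' hk]⟩
  have hcj : ∀ (θ : PInv (P : Subgroup G) K), f (cj K θ) = cj (K ⊓ N) (f θ) := by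
    intro θ
    obtain ⟨m, h1, h2⟩ := F2 θ
    refine (F1 _ _ m ?_ h2).symm
    have h3 := inn_conj (inf_le_left : K ⊓ N ≤ K) (θ.1 : ↥K → ℂ) ((f θ).1 : ↥(K ⊓ N) → ℂ)
    rw [h1, Complex.conj_natCast] at h3
    exact h3
  have hreal_iff : ∀ (H : Subgroup G) (θ : PInv (P : Subgroup G) H),
      cj H θ = θ ↔ ∀ k : H, ((θ.1 : H → ℂ) k).im = 0 := by
    intro H θ
    rw [← irrConj_eq_iff]
    exact Subtype.ext_iff
  have hfreal : ∀ θ : PInv (P : Subgroup G) K, (∀ k : K, ((θ.1 : K → ℂ) k).im = 0) →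
      ∀ c : ↥(K ⊓ N), (((f θ).1 : ↥(K ⊓ N) → ℂ) c).im = 0 := by
    intro θ h
    rw [← hreal_iff] at h ⊢
    rw [← hcj, h]
  have hfreal' : ∀ θ : PInv (P : Subgroup G) K,
      (∀ c : ↥(K ⊓ N), (((f θ).1 : ↥(K ⊓ N) → ℂ) c).im = 0) →
      ∀ k : K, ((θ.1 : K → ℂ) k).im = 0 := by
    intro θ h
    rw [← hreal_iff] at h ⊢
    apply hf.1
    rw [hcj, h]
  -- transport
  let tr : IrrCharacter ↥(K ⊓ N) → IrrCharacter (K.subgroupOf N) := fun ξ =>
    ⟨fun x => (ξ : ↥(K ⊓ N) → ℂ) (eqv K N x),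
      isIrr_comp (eqv K N).toMonoidHom (eqv K N).surjective ξ.2⟩
  let trI : IrrCharacter (K.subgroupOf N) → IrrCharacter ↥(K ⊓ N) := fun ξ =>
    ⟨fun c => (ξ : (K.subgroupOf N) → ℂ) ((eqv K N).symm c),
      isIrr_comp (eqv K N).symm.toMonoidHom (eqv K N).symm.surjective ξ.2⟩
  have htrinj : Function.Injective tr := by
    intro ξ ξ' h
    apply Subtype.ext
    funext c
    have h1 := congrFun (congrArg Subtype.val h) ((eqv K N).symm c)
    exact h1
  have hdegtr : ∀ ξ : IrrCharacter ↥(K ⊓ N),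
      charDegree (tr ξ : (K.subgroupOf N) → ℂ) = charDegree (ξ : ↥(K ⊓ N) → ℂ) := by
    intro ξ
    unfold charDegree
    rfl
  let one : RIrr (K.subgroupOf N) := ⟨⟨1, isIrr_one⟩, fun k => by simp⟩
  let Φ : RIrr K → RIrr (K.subgroupOf N) := fun θ =>
    if h : ∀ u ∈ (P : Subgroup G), u • θ = θ then
      ⟨tr (f ⟨θ.1, (pInv_iff (P : Subgroup G) K θ).1 h⟩).1, fun x => hfreal _ θ.2 _⟩
    else one
  have hΦ : ∀ (θ : RIrr K) (h : ∀ u ∈ (P : Subgroup G), u • θ = θ),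
      (Φ θ).1 = tr (f ⟨θ.1, (pInv_iff (P : Subgroup G) K θ).1 h⟩).1 := by
    intro θ h
    have h1 : Φ θ = ⟨tr (f ⟨θ.1, (pInv_iff (P : Subgroup G) K θ).1 h⟩).1,
        fun x => hfreal _ θ.2 _⟩ := dif_pos h
    rw [h1]
  -- conjugation by the normalizer preserves invariance
  have hnfix : ∀ (n : N) (θ : RIrr K), (∀ u ∈ (P : Subgroup G), u • θ = θ) →
      ∀ u ∈ (P : Subgroup G), u • ((n : G) • θ) = (n : G) • θ := by
    intro n θ hθ u hu
    have h2 : (n : G) ∈ Subgroup.normalizer ((P : Subgroup G) : Set G) := by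
      rw [← hN]
      exact n.2
    have h3 : (n : G)⁻¹ * u * n ∈ (P : Subgroup G) := by
      have h4 := Subgroup.inv_mem _ h2
      have h5 := (Subgroup.mem_normalizer_iff.1 h4 u).1 hu
      rwa [inv_inv] at h5
    have h6 : u • (n : G) • θ = (n : G) • (((n : G)⁻¹ * u * n) • θ) := by
      rw [smul_smul, smul_smul]
      congr 1
      group
    rw [h6, hθ _ h3]
  refine Cfsg.Agent.H692.RealMcKay.exists_bij hreal K hodd P N hN Φ ?_ ?_ ?_ ?_ ?_
  · -- fixed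
    intro θ hθ u hu
    apply Subtype.ext
    rw [coe_smul_rirr, hΦ θ hθ]
    apply Subtype.ext
    funext x
    rw [irrSmul_apply]
    exact (f ⟨θ.1, (pInv_iff (P : Subgroup G) K θ).1 hθ⟩).2 (u : G)⁻¹
      ((P : Subgroup G).inv_mem hu) _ _ rfl
  · -- injective
    intro θ θ' hθ hθ' h
    have h1 := congrArg Subtype.val h
    rw [hΦ θ hθ, hΦ θ' hθ'] at h1
    have h2 := hf.1 (Subtype.ext (htrinj h1))
    have h3 : θ.1 = θ'.1 := congrArg (fun z : PInv (P : Subgroup G) K => z.1) h2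
    exact Subtype.ext h3
  · -- surjective
    intro φ hφ
    let ξ : PInv (P : Subgroup G) (K ⊓ N) := ⟨trI φ.1, by
      intro x hx c c' hc
      have hxN : x ∈ N := by
        rw [hN]
        exact Subgroup.le_normalizer hx
      have h1 := hφ ⟨x⁻¹, N.inv_mem hxN⟩ ((P : Subgroup G).inv_mem hx)
      have h2 : irrSmul (⟨x⁻¹, N.inv_mem hxN⟩ : N) φ.1 = φ.1 := by rw [← coe_smul_rirr, h1]
      have h3 := congrFun (congrArg Subtype.val h2) ((eqv K N).symm c)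
      rw [irrSmul_apply] at h3
      have h4 : (eqv K N).symm c' = MulAut.conjNormal (⟨x⁻¹, N.inv_mem hxN⟩ : N)⁻¹
          ((eqv K N).symm c) := by
        apply Subtype.ext
        apply Subtype.ext
        rw [MulAut.conjNormal_apply]
        show (c' : G) = x⁻¹⁻¹ * (c : G) * x⁻¹⁻¹⁻¹
        rw [hc]
        group
      show ((φ.1 : IrrCharacter (K.subgroupOf N)) : (K.subgroupOf N) → ℂ) ((eqv K N).symm c') =
        ((φ.1 : IrrCharacter (K.subgroupOf N)) : (K.subgroupOf N) → ℂ) ((eqv K N).symm c)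
      rw [h4]
      exact h3⟩
    obtain ⟨θ, hθ⟩ := hf.2 ξ
    have hθr : ∀ k : K, ((θ.1 : K → ℂ) k).im = 0 := by
      apply hfreal'
      rw [hθ]
      intro c
      exact φ.2 _
    let θ' : RIrr K := ⟨θ.1, hθr⟩
    have hθ' : ∀ u ∈ (P : Subgroup G), u • θ' = θ' := (pInv_iff (P : Subgroup G) K θ').2 θ.2
    refine ⟨θ', hθ', Subtype.ext ?_⟩
    rw [hΦ θ' hθ']
    have h5 : f ⟨θ'.1, (pInv_iff (P : Subgroup G) K θ').1 hθ'⟩ = ξ := hθ
    rw [h5]
    rfl
  · -- equivariant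
    intro n θ hθ
    have hnθ := hnfix n θ hθ
    apply Subtype.ext
    rw [coe_smul_rirr, hΦ _ hnθ, hΦ θ hθ]
    set θ₁ : PInv (P : Subgroup G) K := ⟨θ.1, (pInv_iff (P : Subgroup G) K θ).1 hθ⟩ with hθ₁
    -- the conjugate of `f θ₁`
    let η : IrrCharacter (K.subgroupOf N) := irrSmul n (tr (f θ₁).1)
    have hnN : (n : G) ∈ Subgroup.normalizer ((P : Subgroup G) : Set G) := by
      rw [← hN]
      exact n.2
    have hval : ∀ c : ↥(K ⊓ N), ∀ c' : ↥(K ⊓ N), (c' : G) = (n : G)⁻¹ * c * n →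
        (trI η : ↥(K ⊓ N) → ℂ) c = ((f θ₁).1 : ↥(K ⊓ N) → ℂ) c' := by
      intro c c' hc
      show ((f θ₁).1 : ↥(K ⊓ N) → ℂ) (eqv K N (MulAut.conjNormal n⁻¹ ((eqv K N).symm c))) = _
      have h8 : eqv K N (MulAut.conjNormal n⁻¹ ((eqv K N).symm c)) = c' := by
        apply Subtype.ext
        rw [hc]
        show (n : G)⁻¹ * (c : G) * (n : G)⁻¹⁻¹ = _
        rw [inv_inv]
      rw [h8]
    have hmemC : ∀ c : ↥(K ⊓ N), (n : G)⁻¹ * c * n ∈ K ⊓ N := by
      intro c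
      refine ⟨?_, N.mul_mem (N.mul_mem (N.inv_mem n.2) c.2.2) n.2⟩
      have := hK.conj_mem c c.2.1 (n : G)⁻¹
      rwa [inv_inv] at this
    let ξ : PInv (P : Subgroup G) (K ⊓ N) := ⟨trI η, by
      intro x hx c c' hc
      rw [hval c ⟨_, hmemC c⟩ rfl, hval c' ⟨_, hmemC c'⟩ rfl]
      have h3 : (n : G)⁻¹ * x * n ∈ (P : Subgroup G) := by
        have h4 := Subgroup.inv_mem _ hnN
        have h5 := (Subgroup.mem_normalizer_iff.1 h4 x).1 hx
        rwa [inv_inv] at h5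
      refine (f θ₁).2 _ h3 _ _ ?_
      show (n : G)⁻¹ * c' * n = (n : G)⁻¹ * x * n * ((n : G)⁻¹ * c * n) * ((n : G)⁻¹ * x * n)⁻¹
      rw [hc]
      group⟩
    have hkey : ξ = f ⟨((n : G) • θ).1, (pInv_iff (P : Subgroup G) K _).1 hnθ⟩ := by
      obtain ⟨m, h1, h2⟩ := F2 θ₁
      refine F1 _ ξ m ?_ h2
      rw [← h1]
      unfold inn
      congr 1
      -- reindex by conjugation
      let σ : ↥(K ⊓ N) ≃ ↥(K ⊓ N) :=
        { toFun := fun c => ⟨(n : G)⁻¹ * c * n, hmemC c⟩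
          invFun := fun c => ⟨(n : G) * c * (n : G)⁻¹, hK.conj_mem c c.2.1 n,
            N.mul_mem (N.mul_mem n.2 c.2.2) (N.inv_mem n.2)⟩
          left_inv := fun c => Subtype.ext (by
            show (n : G) * ((n : G)⁻¹ * c * n) * (n : G)⁻¹ = c
            group)
          right_inv := fun c => Subtype.ext (by
            show (n : G)⁻¹ * ((n : G) * c * (n : G)⁻¹) * n = c
            group) }
      refine (finsum_congr fun c => ?_).trans (finsum_comp_equiv σ)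
      congr 1
      · -- value of `n • θ`
        show ((((n : G) • θ).1 : IrrCharacter K) : K → ℂ) (Subgroup.inclusion inf_le_left c) = _
        rw [coe_smul_rirr, irrSmul_apply]
        have h7 : MulAut.conjNormal (n : G)⁻¹ (Subgroup.inclusion (inf_le_left : K ⊓ N ≤ K) c) =
            Subgroup.inclusion (inf_le_left : K ⊓ N ≤ K) (σ c) := by
          apply Subtype.ext
          rw [MulAut.conjNormal_apply, inv_inv]
          rfl
        rw [h7]
      · exact congrArg _ (hval c (σ c) rfl)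
    rw [← hkey]
    rfl
  · -- degrees
    intro θ hθ
    rw [hΦ θ hθ, hdegtr]
    exact (hf2 ⟨θ.1, (pInv_iff (P : Subgroup G) K θ).1 hθ⟩).2

end Cfsg.Agent.H692.RealMcKayC
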